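import Mathlib
import Cfsg.Agent.Spor.F24.S3M
import Cfsg.Agent.Spor.F24.C13
import Cfsg.Agent.Spor.F24.W13

/-! The normaliser of a subgroup of order 13. -/

set_option autoImplicit false
set_option maxRecDepth 100000
set_option exponentiation.threshold 100000

namespace Cfsg.Agent.Spor.F24

open Cfsg.Agent.Spor Cfsg.Agent.Spor.FL Subgroup

variable {G : Type*} [Group G] (M : Mod G)

theorem n13_ord : orderOf (M.wl c13_f 4) = 13 :=
  have : Fact (Nat.Prime 13) := ⟨by norm_num⟩
  M.orderOf_prime (by decide +kernel) (by decide +kernel)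

theorem n13_mem : M.wl c13_f 4 ∈ centralizer ({M.x 0, M.x 3, M.x 1307, M.x 263774} : Set G) := by
  have h : ∀ p, band (blt p 306936) (Nat.beq (traceP X (c13_f.get 4) p) p) = true → Commute (M.wl c13_f 4) (M.x p) :=
    fun p hp => by
      rw [band_iff, blt_iff, nbeq_iff] at hp
      exact (M.commute_iff (LT.all_get c13_hf 4) hp.1).2 hp.2
  exact mem_cen_four.2 ⟨h _ (by decide +kernel), h _ (by decide +kernel), h _ (by decide +kernel), h _ (by decide +kernel)⟩

theorem n13_cen (hM : TT.G24 M.D) : centralizer ({M.x 0, M.x 3, M.x 1307, M.x 263774} : Set G) ⊓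
    centralizer {M.wl c13_f 4} = zpowers (M.wl c13_f 4) := by
  have := M.fin
  have h1 : cen (M.wl c13_f) 4 = centralizer {M.x 0, M.x 3, M.x 1307, M.x 263774} := (M.cen_four (by decide +kernel)).2.2
  have h2 : M.wl c13_f 5 = (M.wl c13_f 4)⁻¹ := by
    rw [TM.wl_def, TM.wl_def, ← M.w_inv (LT.all_get c13_hf 4)]
    exact congrArg M.w (eq_of_beqL (by decide +kernel))
  refine (eq_of_le_of_card (le_inf (zpowers_le.2 (n13_mem M)) (zpowers_le.2 (mem_centralizer_singleton_iff.2 rfl)))
    ?_).symm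
  rw [Nat.card_zpowers, n13_ord, ← (c13 M hM).card]
  refine card_le_of_le fun a ha => ?_
  have h3 : Commute a (M.wl c13_f 4) := mem_centralizer_singleton_iff.1 ha.2
  rw [cen_succ, cen_succ, h1, h2]
  exact ⟨⟨ha.1, smul_toCj_self.2 h3⟩, smul_toCj_self.2 h3.inv_right⟩

theorem n13_D {d : G} (hd : d ∈ M.D) (h : Commute d (M.wl c13_f 4)) :
    d = M.x 0 ∨ d = M.x 277049 ∨ d = M.x 1 ∨ d = M.x 3 ∨ d = M.x 263774 ∨ d = M.x 1307 := by
  have h1 := (M.conj (M.w c13_u)).D_inter_cen ((M.conj (M.w c13_u)).tabs_wl w13_hf 1) w13_W w13_p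
  have h2 : (M.conj (M.w c13_u)).wl w13_f 0 = M.wl c13_f 4 ^ 9 := by
    rw [TM.conj_wl]
    exact M.cj_pow (by decide +kernel)
  rw [cen_one, h2, TM.conj_D] at h1
  obtain ⟨i, hi, rfl⟩ := h1.le ⟨hd, mem_centralizer_singleton_iff.2 (h.pow_right 9)⟩
  have h3 : (M.conj (M.w c13_u)).x (w13_P i) = M.x (nthL [0, 277049, 1, 3, 263774, 1307] i) :=
    M.conj_eq ((allLt_iff 6 fun i => band (blt (w13_P i) 306936) (band (lettersLt 306952 c13_u)
      (Nat.beq (traceP X c13_u (w13_P i)) (nthL [0, 277049, 1, 3, 263774, 1307] i)))).1 (by decide +kernel) i hi)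
  have h4 : ∀ i < 6, nthL [0, 277049, 1, 3, 263774, 1307] i ∈ [0, 277049, 1, 3, 263774, 1307] := by decide +kernel
  have h5 := h4 i hi
  simp only [List.mem_cons, List.not_mem_nil, or_false] at h5
  simp only [h3]
  rcases h5 with h5 | h5 | h5 | h5 | h5 | h5 <;> simp [h5]

/-- Generators of the product of the two symmetric groups. -/
noncomputable def n13_l : LT := .node (.node (.leaf [1307]) (.leaf [0])) (.node (.leaf [263774]) (.leaf [3]))

theorem n13_ch : ∀ Y : Subgroup G, Finite Y → genLt (M.wl n13_l) 4 ≤ Y →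
    36 * Nat.card (fixB (pts M.x) Y [0, 3, 1307, 263774]) ≤ Nat.card Y := by
  have hl : n13_l.all (lettersLt 306952) = true := by decide +kernel
  exact (M.lowLevel hl (r1 := 3) (k := 3) (O := nthL [0, 1, 3]) (E := nthL [0, 259, 66050]) (by decide +kernel)
      ((allLt_iff _ _).1 (by decide +kernel))).card_fix
    ((M.lowLevel hl (r1 := 2) (k := 2) (O := nthL [1, 3]) (E := nthL [65794, 0]) (by decide +kernel)
      ((allLt_iff _ _).1 (by decide +kernel))).card_fix
    ((M.lowLevel hl (r1 := 1) (k := 3) (O := nthL [1307, 263774, 277049]) (E := nthL [0, 131584, 257]) (by decide +kernel)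
      ((allLt_iff _ _).1 (by decide +kernel))).card_fix
    ((M.lowLevel hl (r1 := 0) (k := 2) (O := nthL [263774, 277049]) (E := nthL [0, 256]) (by decide +kernel)
      ((allLt_iff _ _).1 (by decide +kernel))).card_fix (card_fix_nil _ _))))

theorem n13_conj {g : G} (hg : g ∈ normalizer (zpowers (M.wl c13_f 4) : Set G)) {p : ℕ}
    (hp : p ∈ [0, 3, 1307, 263774]) : g * M.x p * g⁻¹ = M.x 0 ∨ g * M.x p * g⁻¹ = M.x 277049 ∨ g * M.x p * g⁻¹ = M.x 1 ∨
      g * M.x p * g⁻¹ = M.x 3 ∨ g * M.x p * g⁻¹ = M.x 263774 ∨ g * M.x p * g⁻¹ = M.x 1307 := by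
  have h1 : p < 306936 ∧ M.x p ∈ centralizer (zpowers (M.wl c13_f 4) : Set G) := by
    obtain ⟨a1, a2, a3, a4⟩ := mem_cen_four.1 (n13_mem M)
    rw [centralizer_zpowers, mem_centralizer_singleton_iff]
    simp only [List.mem_cons, List.not_mem_nil, or_false] at hp
    rcases hp with rfl | rfl | rfl | rfl
    exacts [⟨by decide, a1.symm⟩, ⟨by decide, a2.symm⟩, ⟨by decide, a3.symm⟩, ⟨by decide, a4.symm⟩]
  have h2 := (mem_normalizer_iff.1 (normalizer_le_normalizer_cen _ hg) _).1 h1.2
  rw [centralizer_zpowers, mem_centralizer_singleton_iff] at h2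
  exact n13_D M (M.conj_mem (M.mem_D h1.1) g) h2

theorem n13_card (hM : TT.G24 M.D) {K : Subgroup G} (hK : K = centralizer {M.x 0, M.x 3, M.x 1307, M.x 263774}) :
    Nat.card (K ⊓ normalizer (zpowers (M.wl c13_f 4) : Set G) : Subgroup G) = 78 := by
  have := M.fin
  have : Fact (Nat.Prime 13) := ⟨by norm_num⟩
  have hx : M.wl c13_f 4 ∈ K := hK ▸ n13_mem M
  have h1 : (zpowers (M.wl c13_f 4)).subgroupOf K = zpowers ⟨_, hx⟩ :=
    map_injective K.subtype_injective (by rw [map_subgroupOf_eq_of_le (zpowers_le.2 hx), MonoidHom.map_zpowers]; rfl)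
  have h2 : centralizer {(⟨_, hx⟩ : K)} = zpowers ⟨_, hx⟩ := by
    rw [← h1, ← n13_cen M hM, ← hK, inf_subgroupOf_left]
    ext a
    simp [mem_subgroupOf, mem_centralizer_singleton_iff, Subtype.ext_iff]
  have h3 : orderOf (⟨_, hx⟩ : K) = 13 := (orderOf_mk _ _).trans (n13_ord M)
  have h4 := card_normalizer_zpowers (e := 6) (c := 13) h3 (hK ▸ (k2_spec M hM).1) (by norm_num)
    (by rw [h2, Nat.card_zpowers, h3]) (by decide +kernel)
  rwa [← h1, ← subgroupOf_normalizer_eq (zpowers_le.2 hx), ← inf_subgroupOf_left, card_subgroupOf inf_le_left] at h4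

theorem n13_le (hM : TT.G24 M.D) : Nat.card (normalizer (zpowers (M.wl c13_f 4) : Set G)) ≤ 72 * 78 := by
  have := M.fin
  set N := normalizer (zpowers (M.wl c13_f 4) : Set G)
  have c : ∀ {u a b : G}, u ∈ centralizer {a} → (Commute a (u * b * u⁻¹) ↔ Commute a b) := fun hu =>
    TT.commute_cj_right_of (mem_centralizer_singleton_iff.1 hu)
  have h1 := card_le_of_conj_inf (N := N) (S := {M.x 0, M.x 277049, M.x 1, M.x 3, M.x 263774, M.x 1307}) (c := 6)
    (fun a ha => n13_conj M ha (p := 0) (by simp)) (by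
      iterate 5 refine (Set.ncard_insert_le _ _).trans (Nat.succ_le_succ ?_)
      simp)
  have h2 := card_le_of_conj_inf (N := N ⊓ centralizer {M.x 0}) (x := M.x 3) (S := {M.x 1, M.x 3}) (c := 2)
    (fun a ha => by
      have h := mt (c ha.2).1 (s3_ax M).2
      rcases n13_conj M ha.1 (p := 3) (by simp) with e | e | e | e | e | e <;> rw [e] at h ⊢ <;>
        first | (simp; done) | exact absurd (s3_comm M (by decide +kernel)) h)
    ((Set.ncard_insert_le _ _).trans (by simp))
  have h3 := card_le_of_conj_inf (N := N ⊓ centralizer {M.x 0} ⊓ centralizer {M.x 3}) (x := M.x 1307)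
    (S := {M.x 277049, M.x 263774, M.x 1307}) (c := 3)
    (fun a ha => by
      have h := (c ha.1.2).2 (s3_comm M (q := 1307) (by decide +kernel))
      have h' := (c ha.2).2 (s3_comm M (q := 1307) (by decide +kernel))
      rcases n13_conj M ha.1.1 (p := 1307) (by simp) with e | e | e | e | e | e <;> rw [e] at h h' ⊢ <;>
        first | (simp; done) | exact absurd h (s3_ncomm M (by decide +kernel)) |
          exact absurd h' (s3_ncomm M (by decide +kernel)))
    (by
      iterate 2 refine (Set.ncard_insert_le _ _).trans (Nat.succ_le_succ ?_)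
      simp)
  have h4 := card_le_of_conj_inf (N := N ⊓ centralizer {M.x 0} ⊓ centralizer {M.x 3} ⊓ centralizer {M.x 1307})
    (x := M.x 263774) (S := {M.x 277049, M.x 263774}) (c := 2)
    (fun a ha => by
      have h := mt (c ha.2).1 (s3_ncomm M (q := 263774) (by decide +kernel))
      rcases n13_conj M ha.1.1.1 (p := 263774) (by simp) with e | e | e | e | e | e <;> rw [e] at h ⊢ <;>
        first | (simp; done) | exact absurd (s3_comm M (by decide +kernel)) h)
    ((Set.ncard_insert_le _ _).trans (by simp))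
  have h5 := card_le_of_le (show N ⊓ centralizer {M.x 0} ⊓ centralizer {M.x 3} ⊓ centralizer {M.x 1307} ⊓
    centralizer {M.x 263774} ≤ centralizer {M.x 0, M.x 3, M.x 1307, M.x 263774} ⊓ N from fun a ha =>
      ⟨mem_cen_four.2 ⟨mem_centralizer_singleton_iff.1 ha.1.1.1.2, mem_centralizer_singleton_iff.1 ha.1.1.2,
        mem_centralizer_singleton_iff.1 ha.1.2, mem_centralizer_singleton_iff.1 ha.2⟩, ha.1.1.1.1⟩)
  rw [n13_card M hM rfl] at h5
  omega

theorem n13_main (hM : TT.G24 M.D) {T K B : Subgroup G} (hT : T = closure {M.x 0, M.x 1307, M.x 263774, M.x 3})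
    (hK : K = centralizer (T : Set G)) (hB : B = zpowers (M.wl c13_f 4)) :
    normalizer (B : Set G) ≤ normalizer (K : Set G) ∧ Nat.card (K ⊓ normalizer (B : Set G) : Subgroup G) = 78 ∧
      K ⊓ centralizer (B : Set G) = B ∧
      (((K ⊓ normalizer (B : Set G)) ⊔ T).subgroupOf (normalizer (B : Set G))).index = 2 := by
  have := M.fin
  have hK' : K = centralizer {M.x 0, M.x 3, M.x 1307, M.x 263774} := by
    rw [hK, hT, centralizer_closure]
    ext a
    simp only [mem_cen_four]
    tauto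
  have t0 : M.x 0 ∈ T := hT ▸ subset_closure (by simp)
  have t3 : M.x 3 ∈ T := hT ▸ subset_closure (by simp)
  have t1 : M.x 1307 ∈ T := hT ▸ subset_closure (by simp)
  have t2 : M.x 263774 ∈ T := hT ▸ subset_closure (by simp)
  have t4 : M.x 1 ∈ T := M.conj_eq (l := [0]) (i := 3) (j := 1) (by decide +kernel) ▸
    mul_mem (mul_mem (mul_mem t0 (one_mem _)) t3) (inv_mem (mul_mem t0 (one_mem _)))
  have t5 : M.x 277049 ∈ T := M.conj_eq (l := [1307]) (i := 263774) (j := 277049) (by decide +kernel) ▸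
    mul_mem (mul_mem (mul_mem t1 (one_mem _)) t2) (inv_mem (mul_mem t1 (one_mem _)))
  have h1 : normalizer (B : Set G) ≤ normalizer (T : Set G) := fun g hg => by
    have h : T.map (MulAut.conj g).toMonoidHom ≤ T := by
      conv_lhs => rw [hT, MonoidHom.map_closure]
      rw [closure_le]
      have h2 : ∀ p ∈ [0, 3, 1307, 263774], g * M.x p * g⁻¹ ∈ T := fun p hp => by
        rcases n13_conj M (hB ▸ hg) hp with e | e | e | e | e | e <;> rwa [e]
      rintro _ ⟨_, rfl | rfl | rfl | rfl, rfl⟩ <;> exact h2 _ (by simp)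
    exact mem_normalizer_iff_map_conj_eq.2 (eq_of_le_of_card h (card_map_conj _ _).ge)
  have h2 := n13_card M hM hK'
  have h3 := n13_le M hM
  rw [← hB] at h2 h3
  refine ⟨hK ▸ h1.trans (normalizer_le_normalizer_cen T), h2, by rw [hB, hK', centralizer_zpowers, n13_cen M hM], ?_⟩
  have h4 : T ≤ normalizer (B : Set G) :=
    (le_centralizer_iff.1 (hK ▸ hB ▸ zpowers_le.2 (hK' ▸ n13_mem M))).trans (centralizer_le_normalizer _)
  have h5 := n13_ch M (K ⊓ normalizer (B : Set G) ⊔ T) inferInstance (le_sup_of_le_right (genLt_le fun s hs => by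
    interval_cases s
    exacts [mul_mem t1 (one_mem _), mul_mem t2 (one_mem _), mul_mem t0 (one_mem _), mul_mem t3 (one_mem _)]))
  have h6 := card_le_of_le (show K ⊓ normalizer (B : Set G) ≤ fixB (pts M.x) (K ⊓ normalizer (B : Set G) ⊔ T)
    [0, 3, 1307, 263774] from fun a ha => mem_fixB.2 ⟨mem_sup_left ha, fun b hb => by
      obtain ⟨a1, a2, a3, a4⟩ := mem_cen_four.1 (hK' ▸ ha.1)
      simp only [List.mem_cons, List.not_mem_nil, or_false] at hb
      rcases hb with rfl | rfl | rfl | rfl <;> rwa [pts, smul_toCj_self]⟩)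
  have h7 := card_eq_of_relIndex (sup_le inf_le_right h4 : K ⊓ normalizer (B : Set G) ⊔ T ≤ _)
  have h8 : (K ⊓ normalizer (B : Set G) ⊔ T).relIndex (normalizer (B : Set G)) ≠ 1 := fun h => by
    have a1 : M.w c13_y ∈ normalizer (B : Set G) :=
      hB ▸ mem_normalizer_zpowers (r := 2) (M.cj_pow (by decide +kernel))
    have a2 : ∀ y, Commute y (M.x 0) → Commute y (M.x 3) → y ∈ centralizer (closure {M.x 0, M.x 3} : Set G) :=
      fun y h0 h3 => by rw [centralizer_closure]; exact TT.mem_cen_pair.2 ⟨h0, h3⟩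
    have a3 : K ⊓ normalizer (B : Set G) ⊔ T ≤ normalizer (closure {M.x 0, M.x 3} : Set G) := by
      refine sup_le (fun y hy => ?_) (hT ▸ (closure_le _).2 ?_)
      · obtain ⟨b1, b2, -⟩ := mem_cen_four.1 (hK' ▸ hy.1)
        exact centralizer_le_normalizer _ (a2 y b1 b2)
      · rintro _ (rfl | rfl | rfl | rfl)
        · exact le_normalizer (subset_closure (by simp))
        · exact centralizer_le_normalizer _ (a2 _ (s3_comm M (by decide +kernel)) (s3_comm M (by decide +kernel)))
        · exact centralizer_le_normalizer _ (a2 _ (s3_comm M (by decide +kernel)) (s3_comm M (by decide +kernel)))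
        · exact le_normalizer (subset_closure (by simp))
    have a4 := (mem_normalizer_iff.1 (a3 (relIndex_eq_one.1 h a1)) (M.x 0)).1 (subset_closure (by simp))
    rw [M.conj_eq (j := 1307) (by decide +kernel)] at a4
    exact s3_ncomm M (p := 1307) (q := 263774) (by decide +kernel)
      (a2 _ (s3_comm M (by decide +kernel)) (s3_comm M (by decide +kernel)) _ a4)
  have h9 : 0 < Nat.card (normalizer (B : Set G)) := Nat.card_pos
  change (K ⊓ normalizer (B : Set G) ⊔ T).relIndex (normalizer (B : Set G)) = 2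
  generalize (K ⊓ normalizer (B : Set G) ⊔ T).relIndex (normalizer (B : Set G)) = r at *
  by_contra h
  rcases (by omega : r = 0 ∨ 3 ≤ r) with rfl | h10
  · omega
  · have := Nat.mul_le_mul_right (Nat.card (K ⊓ normalizer (B : Set G) ⊔ T : Subgroup G)) h10
    omega

end Cfsg.Agent.Spor.F24
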